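import Cfsg.Agent.Classical.Unitary.Group
import Cfsg.Agent.QuadExt.Embedding
import Cfsg.Agent.Classical.Symp.Form
import Cfsg.Prelude.Def_ClassicalGeometry
import Cfsg.Agent.Eq.Def_ClassicalGeometry

/-!
Restriction of scalars from the field `K` with `q²` elements to `F` with `q` elements: coordinates, and the
embeddings of `GU_m(q)` in symplectic and orthogonal groups of dimension `2m`.
-/

set_option autoImplicit false

namespace CfsgLib.Unitary

open Cfsg Matrix

variable {F K : Type*} [Field F] [Field K] [Algebra F K]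

section Restrict

variable {m : ℕ} {κ : Type*} [Fintype κ] [DecidableEq κ]

/-- The matrix over `F` of a matrix over `K`, in the coordinates `e`. -/
noncomputable def restrictMat (e : (Fin m → K) ≃ₗ[F] (κ → F)) :
    Matrix (Fin m) (Fin m) K →* Matrix κ κ F where
  toFun A := LinearMap.toMatrix' (e.toLinearMap ∘ₗ (A.mulVecLin.restrictScalars F) ∘ₗ e.symm.toLinearMap)
  map_one' := by
    refine Matrix.ext_iff_mulVec.mpr fun w => ?_
    rw [← Matrix.toLin'_apply, Matrix.toLin'_toMatrix']
    simp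
  map_mul' A B := by
    refine Matrix.ext_iff_mulVec.mpr fun w => ?_
    rw [← Matrix.mulVec_mulVec, ← Matrix.toLin'_apply, Matrix.toLin'_toMatrix', ← Matrix.toLin'_apply,
      Matrix.toLin'_toMatrix', ← Matrix.toLin'_apply, Matrix.toLin'_toMatrix']
    simp

theorem restrictMat_mulVec (e : (Fin m → K) ≃ₗ[F] (κ → F)) (A : Matrix (Fin m) (Fin m) K) (v : Fin m → K) :
    restrictMat e A *ᵥ e v = e (A *ᵥ v) := by
  rw [restrictMat, MonoidHom.coe_mk, OneHom.coe_mk, ← Matrix.toLin'_apply, Matrix.toLin'_toMatrix']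
  simp

theorem restrictMat_injective (e : (Fin m → K) ≃ₗ[F] (κ → F)) :
    Function.Injective (restrictMat e) := by
  intro A B h
  refine Matrix.ext_iff_mulVec.mpr fun v => e.injective ?_
  rw [← restrictMat_mulVec, ← restrictMat_mulVec, h]

/-- The group homomorphism induced by `restrictMat` on invertible matrices. -/
noncomputable def restrictGL (e : (Fin m → K) ≃ₗ[F] (κ → F)) : GL (Fin m) K →* GL κ F :=
  Units.map (restrictMat e)

theorem restrictGL_injective (e : (Fin m → K) ≃ₗ[F] (κ → F)) : Function.Injective (restrictGL e) :=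
  Units.map_injective (restrictMat_injective e)

theorem coe_restrictGL (e : (Fin m → K) ≃ₗ[F] (κ → F)) (A : GL (Fin m) K) :
    ((restrictGL e A : GL κ F) : Matrix κ κ F) = restrictMat e (A : Matrix (Fin m) (Fin m) K) := rfl

end Restrict

/-- Transport of a quadratic map along coordinates gives an embedding in its isometry group. -/
theorem exists_hom_isometryGroup {m : ℕ} {κ : Type} [Fintype κ] [DecidableEq κ] {q : ℕ}
    (e : (Fin m → K) ≃ₗ[F] (κ → F)) (Q : (κ → F) → F)
    (h : ∀ v, algebraMap F K (Q (e v)) = hermForm m K q v v) :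
    ∃ φ : ↥(GU m K q) →* ↥(isometryGroup F Q), Function.Injective φ := by
  refine ⟨((restrictGL e).comp (GU m K q).subtype).codRestrict (isometryGroup F Q) (fun A => ?_), ?_⟩
  · intro u v
    show Q (restrictMat e ((A : GL (Fin m) K) : Matrix (Fin m) (Fin m) K) *ᵥ u) = Q u
    obtain ⟨u, rfl⟩ := e.surjective u
    apply (algebraMap F K).injective
    rw [restrictMat_mulVec, h, h, mem_GU.1 A.2]
  · intro A B hAB
    exact Subtype.ext (restrictGL_injective e (congrArg Subtype.val hAB))

variable [Fintype F] [Fintype K]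

theorem finrank_quad (hK : Fintype.card K = Fintype.card F ^ 2) : Module.finrank F K = 2 := by
  have h := Module.card_eq_pow_finrank (K := F) (V := K)
  rw [hK] at h
  exact (Nat.pow_right_injective Fintype.one_lt_card h).symm

theorem algebraMap_pow_q (x : F) :
    algebraMap F K x ^ Fintype.card F = algebraMap F K x := by
  rw [← map_pow, FiniteField.pow_card]

theorem algebraMap_trace_quad (hK : Fintype.card K = Fintype.card F ^ 2) (x : K) :
    algebraMap F K (Algebra.trace F K x) = x + x ^ Fintype.card F := by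
  rw [FiniteField.algebraMap_trace_eq_sum_pow, finrank_quad hK]
  simp [Finset.sum_range_succ, Nat.card_eq_fintype_card]

theorem exists_algebraMap_eq (hK : Fintype.card K = Fintype.card F ^ 2) {x : K}
    (hx : x ^ Fintype.card F = x) : ∃ a : F, algebraMap F K a = x := by
  obtain ⟨y, hy⟩ := exists_trace_eq hK hx
  exact ⟨Algebra.trace F K y, by rw [algebraMap_trace_quad hK, hy]⟩

theorem exists_pow_q_ne (hK : Fintype.card K = Fintype.card F ^ 2) :
    ∃ ω : K, ω ^ Fintype.card F ≠ ω := by
  classical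
  by_contra hcon
  push Not at hcon
  have h := card_fixed hK
  rw [Nat.card_congr (Equiv.subtypeUnivEquiv hcon), Nat.card_eq_fintype_card, hK] at h
  have h2 := Fintype.one_lt_card (α := F)
  nlinarith

/-- A pair of coordinates for `K` over `F`. -/
theorem exists_coord (hK : Fintype.card K = Fintype.card F ^ 2) {ω : K}
    (hω : ω ^ Fintype.card F ≠ ω) :
    ∃ c₀ c₁ : K →ₗ[F] F, ∀ x : K, algebraMap F K (c₀ x) + algebraMap F K (c₁ x) * ω = x := by
  set d := ω ^ Fintype.card F - ω
  have hd : d ≠ 0 := sub_ne_zero.2 hω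
  have hd' : d ^ Fintype.card F = -d := by
    rw [sub_pow_q hK, pow_q_q hK, neg_sub]
  refine ⟨Algebra.trace F K ∘ₗ LinearMap.mulRight F (ω ^ Fintype.card F * d⁻¹),
    Algebra.trace F K ∘ₗ LinearMap.mulRight F (-d⁻¹), fun x => ?_⟩
  simp only [LinearMap.comp_apply, LinearMap.mulRight_apply, algebraMap_trace_quad hK, mul_pow,
    pow_q_q hK, inv_pow, neg_pow_q hK, hd']
  field_simp
  ring

/-- `GU_m(q)` embeds in `Sp_{2m}(q)`. -/
theorem exists_hom_symplectic (hK : Fintype.card K = Fintype.card F ^ 2) (m : ℕ) :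
    ∃ φ : ↥(GU m K (Fintype.card F)) →* ↥(Matrix.symplecticGroup (Fin m) F), Function.Injective φ := by
  classical
  obtain ⟨ω, hω⟩ := exists_pow_q_ne hK
  obtain ⟨c₀, c₁, hc⟩ := exists_coord hK hω
  let e₀ : (Fin m → K) →ₗ[F] (Fin m ⊕ Fin m → F) :=
    { toFun := fun v => Sum.elim (fun i => c₁ (v i)) (fun i => c₀ (v i))
      map_add' := fun v w => by funext j; cases j <;> simp
      map_smul' := fun c v => by funext j; cases j <;> simp }
  have hinj : Function.Injective e₀ := by
    intro v w h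
    funext i
    rw [← hc (v i), ← hc (w i)]
    have h1 : c₁ (v i) = c₁ (w i) := congrFun h (.inl i)
    have h0 : c₀ (v i) = c₀ (w i) := congrFun h (.inr i)
    rw [h1, h0]
  let e := LinearEquiv.ofInjectiveOfFinrankEq e₀ hinj (by
    rw [Module.finrank_pi_fintype, finrank_quad hK, Module.finrank_fintype_fun_eq_card]; simp; ring)
  have hd : ω ^ Fintype.card F - ω ≠ 0 := sub_ne_zero.2 hω
  have hform : ∀ u v, algebraMap F K (sympForm m F (e u) (e v)) * (ω ^ Fintype.card F - ω) =
      hermForm m K (Fintype.card F) u v - hermForm m K (Fintype.card F) v u := by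
    intro u v
    show algebraMap F K (sympForm m F (e₀ u) (e₀ v)) * _ = _
    simp only [sympForm, hermForm, Matrix.J, dotProduct, Matrix.mulVec, Fintype.sum_sum_type,
      Matrix.fromBlocks_apply₁₁, Matrix.fromBlocks_apply₁₂, Matrix.fromBlocks_apply₂₁,
      Matrix.fromBlocks_apply₂₂, Matrix.zero_apply, Matrix.neg_apply, Matrix.one_apply, zero_mul,
      Finset.sum_const_zero, zero_add, add_zero, neg_mul, ite_mul, one_mul, Finset.sum_ite_eq,
      Finset.mem_univ, if_true, Finset.sum_neg_distrib, mul_neg, map_add, map_neg, map_sum, map_mul,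
      e₀, LinearMap.coe_mk, AddHom.coe_mk, Sum.elim_inl, Sum.elim_inr, add_mul, Finset.sum_mul]
    rw [← Finset.sum_neg_distrib, ← Finset.sum_add_distrib, ← Finset.sum_sub_distrib]
    refine Finset.sum_congr rfl fun i _ => ?_
    conv_rhs => rw [← hc (u i), ← hc (v i)]
    simp only [add_pow_q hK, mul_pow, algebraMap_pow_q]
    ring
  refine ⟨((restrictMat e).comp ((Units.coeHom _).comp (GU m K (Fintype.card F)).subtype)).codRestrict
    (Matrix.symplecticGroup (Fin m) F) (fun A => ?_), ?_⟩
  · refine (CfsgLib.Classical.Symp.mem_symplecticGroup_iff_form _).2 fun u v => ?_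
    obtain ⟨u, rfl⟩ := e.surjective u
    obtain ⟨v, rfl⟩ := e.surjective v
    refine (algebraMap F K).injective (mul_right_cancel₀ hd ?_)
    show algebraMap F K (sympForm m F (restrictMat e ((A : GL (Fin m) K) : Matrix (Fin m) (Fin m) K) *ᵥ e u)
      (restrictMat e ((A : GL (Fin m) K) : Matrix (Fin m) (Fin m) K) *ᵥ e v)) * _ = _
    rw [restrictMat_mulVec, restrictMat_mulVec, hform, hform, mem_GU.1 A.2, mem_GU.1 A.2]
  · intro A B hAB
    exact Subtype.ext (Units.ext (restrictMat_injective e (congrArg Subtype.val hAB)))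

/-- Four coordinates in which `N(x) + N(y)` is hyperbolic. -/
theorem exists_hyperbolic_coord (hK : Fintype.card K = Fintype.card F ^ 2) :
    ∃ a b : Fin 2 → ((Fin 2 → K) →ₗ[F] F),
      (∀ v : Fin 2 → K, (∀ l, a l v = 0) → (∀ l, b l v = 0) → v = 0) ∧
      ∀ v : Fin 2 → K, algebraMap F K (∑ l, a l v * b l v)
        = v 0 * v 0 ^ Fintype.card F + v 1 * v 1 ^ Fintype.card F := by
  obtain ⟨α, hα⟩ := exists_norm_eq hK (a := (-1 : K)) (by rw [neg_pow_q hK, one_pow])
  obtain ⟨β, hβ, hαβ⟩ : ∃ β : K, β ^ (Fintype.card F + 1) = -1 ∧ β ≠ α := by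
    obtain ⟨t, ht, ht2⟩ := exists_norm_one_ne_inv hK
    refine ⟨α * t, by rw [mul_pow, hα, ht, mul_one], fun h => ht2 ?_⟩
    have hα0 : α ≠ 0 := by rintro rfl; simp at hα
    rw [mul_eq_left₀ hα0] at h
    rw [h, one_pow]
  obtain ⟨ω, hω⟩ := exists_pow_q_ne hK
  obtain ⟨c₀, c₁, hc⟩ := exists_coord hK hω
  have hαq : α * α ^ Fintype.card F = -1 := by rw [← hα, pow_succ']
  have hβq : β * β ^ Fintype.card F = -1 := by rw [← hβ, pow_succ']
  set k := 1 + α * β ^ Fintype.card F with hk
  have hk0 : k ≠ 0 := by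
    intro h
    apply hαβ
    linear_combination β * h - α * hβq
  have hkq : k ^ Fintype.card F = 1 + β * α ^ Fintype.card F := by
    rw [hk, add_pow_q hK, one_pow, mul_pow, pow_q_q hK, mul_comm]
  let A : (Fin 2 → K) →ₗ[F] K :=
    { toFun := fun v => (v 0 + v 1 * β ^ Fintype.card F) / k
      map_add' := fun v w => by simp; ring
      map_smul' := fun c v => by simp [Algebra.smul_def]; ring }
  let B : (Fin 2 → K) →ₗ[F] K :=
    { toFun := fun v => v 0 + v 1 * α ^ Fintype.card F
      map_add' := fun v w => by simp; ring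
      map_smul' := fun c v => by simp [Algebra.smul_def]; ring }
  let T : K →ₗ[F] K :=
    { toFun := fun x => x ^ Fintype.card F
      map_add' := fun x y => add_pow_q hK x y
      map_smul' := fun c x => by simp [Algebra.smul_def, mul_pow, algebraMap_pow_q] }
  refine ⟨![c₀ ∘ₗ A, c₁ ∘ₗ A], ![Algebra.trace F K ∘ₗ T ∘ₗ B,
    Algebra.trace F K ∘ₗ LinearMap.mulLeft F ω ∘ₗ T ∘ₗ B], ?_, ?_⟩
  · intro v ha hb
    have hA : A v = 0 := by
      rw [← hc (A v), show c₀ (A v) = 0 from ha 0, show c₁ (A v) = 0 from ha 1]; simp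
    have hb0 := congrArg (algebraMap F K) (show Algebra.trace F K (T (B v)) = 0 from hb 0)
    have hb1 := congrArg (algebraMap F K) (show Algebra.trace F K (ω * T (B v)) = 0 from hb 1)
    simp only [algebraMap_trace_quad hK, map_zero, mul_pow, T, LinearMap.coe_mk, AddHom.coe_mk,
      pow_q_q hK] at hb0 hb1
    have hB : B v = 0 := by
      have : (ω ^ Fintype.card F - ω) * B v = 0 := by linear_combination hb1 - ω * hb0
      exact (mul_eq_zero.1 this).resolve_left (sub_ne_zero.2 hω)
    have hR : v 0 + v 1 * β ^ Fintype.card F = 0 := (div_eq_zero_iff.1 hA).resolve_right hk0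
    have hP : v 0 + v 1 * α ^ Fintype.card F = 0 := hB
    have hne : β ^ Fintype.card F - α ^ Fintype.card F ≠ 0 := by
      rw [← sub_pow_q hK]; exact pow_ne_zero _ (sub_ne_zero.2 hαβ)
    have h1 : v 1 = 0 := (mul_eq_zero.1
      (by linear_combination hR - hP : (β ^ Fintype.card F - α ^ Fintype.card F) * v 1 = 0)).resolve_left hne
    have h0 : v 0 = 0 := by simpa [h1] using hR
    funext i; fin_cases i <;> assumption
  · intro v
    simp only [Fin.sum_univ_two, Matrix.cons_val_zero, Matrix.cons_val_one, LinearMap.comp_apply,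
      map_add, map_mul, algebraMap_trace_quad hK, LinearMap.mulLeft_apply, T, LinearMap.coe_mk,
      AddHom.coe_mk, mul_pow, pow_q_q hK]
    set P := B v with hP
    have hAc := hc (A v)
    have hAcq : (A v) ^ Fintype.card F = algebraMap F K (c₀ (A v)) + algebraMap F K (c₁ (A v)) * ω ^ Fintype.card F := by
      conv_lhs => rw [← hc (A v)]
      simp only [add_pow_q hK, mul_pow, algebraMap_pow_q]
    trans A v * P ^ Fintype.card F + (A v) ^ Fintype.card F * P
    · rw [hAcq]; linear_combination P ^ Fintype.card F * hAc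
    · have hkq0 : k ^ Fintype.card F ≠ 0 := pow_ne_zero _ hk0
      simp only [hP, A, B, LinearMap.coe_mk, AddHom.coe_mk, div_pow, add_pow_q hK, mul_pow, pow_q_q hK]
      rw [div_mul_eq_mul_div, div_mul_eq_mul_div, div_add_div _ _ hk0 hkq0,
        div_eq_iff (mul_ne_zero hk0 hkq0), hkq, hk]
      generalize v 0 = x
      generalize v 1 = y
      generalize x ^ Fintype.card F = xq
      generalize y ^ Fintype.card F = yq
      generalize α ^ Fintype.card F = αq at hαq ⊢
      generalize β ^ Fintype.card F = βq at hβq ⊢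
      linear_combination (x * xq - y * yq + x * yq * β + y * xq * βq) * hαq
        + (-(α * αq) * (x * xq - y * yq) + x * yq * α + y * xq * αq) * hβq

/-- Hyperbolic coordinates on `K^{2k}`, as a linear map into `F^{4k}`. -/
theorem exists_plus_coord (hK : Fintype.card K = Fintype.card F ^ 2) (k : ℕ) :
    ∃ e : (Fin (k * 2) → K) →ₗ[F] (Fin (k * 2) ⊕ Fin (k * 2) → F), Function.Injective e ∧
      ∀ v, algebraMap F K (quadFormPlus (k * 2) F (e v)) = hermForm (k * 2) K (Fintype.card F) v v := by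
  classical
  obtain ⟨a, b, hker, hab⟩ := exists_hyperbolic_coord (F := F) hK
  let pr : Fin k → (Fin (k * 2) → K) →ₗ[F] (Fin 2 → K) := fun j =>
    LinearMap.funLeft F K fun l => finProdFinEquiv (j, l)
  let e : (Fin (k * 2) → K) →ₗ[F] (Fin (k * 2) ⊕ Fin (k * 2) → F) :=
    LinearMap.pi (Sum.elim (fun i => a (finProdFinEquiv.symm i).2 ∘ₗ pr (finProdFinEquiv.symm i).1)
      (fun i => b (finProdFinEquiv.symm i).2 ∘ₗ pr (finProdFinEquiv.symm i).1))
  have hl : ∀ v (j : Fin k) (l : Fin 2), e v (.inl (finProdFinEquiv (j, l))) = a l (pr j v) ∧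
      e v (.inr (finProdFinEquiv (j, l))) = b l (pr j v) := by
    intro v j l
    constructor
    · show a (finProdFinEquiv.symm (finProdFinEquiv (j, l))).2 _ = _
      rw [Equiv.symm_apply_apply]
    · show b (finProdFinEquiv.symm (finProdFinEquiv (j, l))).2 _ = _
      rw [Equiv.symm_apply_apply]
  refine ⟨e, (injective_iff_map_eq_zero e).2 fun v hv => ?_, fun v => ?_⟩
  · funext i
    obtain ⟨⟨j, l⟩, rfl⟩ := finProdFinEquiv.surjective i
    refine congrFun (hker (pr j v) (fun l' => ?_) (fun l' => ?_)) l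
    · rw [← (hl v j l').1, hv]; rfl
    · rw [← (hl v j l').2, hv]; rfl
  · simp only [quadFormPlus, hermForm]
    rw [← finProdFinEquiv.sum_comp, ← finProdFinEquiv.sum_comp, Fintype.sum_prod_type,
      Fintype.sum_prod_type, map_sum]
    refine Finset.sum_congr rfl fun j _ => ?_
    simp only [(hl v j _).1, (hl v j _).2]
    rw [hab, Fin.sum_univ_two]
    rfl

/-- `GU_m(q)` embeds in `O⁺_{2m}(q)` for even `m`. -/
theorem exists_hom_plus (hK : Fintype.card K = Fintype.card F ^ 2) (k : ℕ) :
    ∃ φ : ↥(GU (k * 2) K (Fintype.card F)) →* ↥(isometryGroup F (quadFormPlus (k * 2) F)),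
      Function.Injective φ := by
  classical
  obtain ⟨e, he, hform⟩ := exists_plus_coord (F := F) hK k
  refine exists_hom_isometryGroup (LinearEquiv.ofInjectiveOfFinrankEq e he ?_) _ hform
  rw [Module.finrank_pi_fintype, finrank_quad hK, Module.finrank_fintype_fun_eq_card]
  simp; ring

/-- An anisotropic binary form is the norm form of the quadratic extension. -/
theorem exists_norm_coord (hK : Fintype.card K = Fintype.card F ^ 2) (a b : F)
    (hab : ∀ z₁ z₂ : F, z₁ ^ 2 + a * z₁ * z₂ + b * z₂ ^ 2 = 0 → z₁ = 0 ∧ z₂ = 0) :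
    ∃ d₀ d₁ : K →ₗ[F] F, (∀ z, d₀ z = 0 → d₁ z = 0 → z = 0) ∧
      ∀ z, algebraMap F K (d₀ z ^ 2 + a * d₀ z * d₁ z + b * d₁ z ^ 2) = z * z ^ Fintype.card F := by
  have hnr : ∀ t : F, t ^ 2 - (-a) * t + b ≠ 0 := fun t ht =>
    one_ne_zero (hab t 1 (by linear_combination ht)).2
  obtain ⟨r, s, -, hrs, hrs'⟩ := CfsgLib.QuadExt.exists_split hK (algebraMap F K) (-a) b hnr
  rw [map_neg] at hrs
  have hroot : r ^ 2 + algebraMap F K a * r + algebraMap F K b = 0 := by
    linear_combination r * hrs - hrs'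
  have hr : r ^ Fintype.card F ≠ r := by
    intro h
    obtain ⟨t, rfl⟩ := exists_algebraMap_eq hK h
    refine hnr t ((algebraMap F K).injective ?_)
    simp only [map_add, map_sub, map_mul, map_neg, map_pow, map_zero]
    linear_combination hroot
  have hsr : r ^ Fintype.card F = s := by
    have h := congrArg (conjHom hK) hroot
    simp only [map_add, map_mul, map_pow, map_zero, conjHom_apply, algebraMap_pow_q] at h
    have h2 : (r ^ Fintype.card F - r) * (r ^ Fintype.card F - s) = 0 := by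
      linear_combination h - r ^ Fintype.card F * hrs + hrs'
    exact sub_eq_zero.1 ((mul_eq_zero.1 h2).resolve_left (sub_ne_zero.2 hr))
  obtain ⟨c₀, c₁, hc⟩ := exists_coord hK hr
  refine ⟨c₀, -c₁, fun z h0 h1 => ?_, fun z => ?_⟩
  · rw [← hc z, h0, neg_eq_zero.1 h1]; simp
  · conv_rhs => rw [← hc z]
    simp only [LinearMap.neg_apply, map_add, map_mul, map_pow, map_neg, add_pow_q hK, mul_pow,
      algebraMap_pow_q, hsr]
    linear_combination (-(algebraMap F K (c₀ z)) * algebraMap F K (c₁ z)) * hrs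
      - (algebraMap F K (c₁ z)) ^ 2 * hrs'

/-- `GU_m(q)` embeds in `O⁻_{2m}(q)` for odd `m`. -/
theorem exists_hom_minus (hK : Fintype.card K = Fintype.card F ^ 2) (k : ℕ) (a b : F)
    (hab : ∀ z₁ z₂ : F, z₁ ^ 2 + a * z₁ * z₂ + b * z₂ ^ 2 = 0 → z₁ = 0 ∧ z₂ = 0) :
    ∃ φ : ↥(GU (k * 2 + 1) K (Fintype.card F)) →* ↥(isometryGroup F (quadFormMinus (k * 2) F a b)),
      Function.Injective φ := by
  classical
  obtain ⟨e₁, he₁, hform⟩ := exists_plus_coord (F := F) hK k
  obtain ⟨d₀, d₁, hd, hnorm⟩ := exists_norm_coord hK a b hab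
  let fs : (Fin (k * 2 + 1) → K) →ₗ[F] (Fin (k * 2) → K) := LinearMap.funLeft F K Fin.castSucc
  let la : (Fin (k * 2 + 1) → K) →ₗ[F] K := LinearMap.proj (Fin.last _)
  let e : (Fin (k * 2 + 1) → K) →ₗ[F] ((Fin (k * 2) ⊕ Fin (k * 2)) ⊕ Fin 2 → F) :=
    LinearMap.pi (Sum.elim (fun i => LinearMap.proj i ∘ₗ e₁ ∘ₗ fs) ![d₀ ∘ₗ la, d₁ ∘ₗ la])
  have he : Function.Injective e := by
    refine (injective_iff_map_eq_zero e).2 fun v hv => ?_
    have h1 : fs v = 0 := (injective_iff_map_eq_zero e₁).1 he₁ _ (funext fun i => congrFun hv (.inl i))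
    have h2 : v (Fin.last _) = 0 := hd _ (congrFun hv (.inr 0)) (congrFun hv (.inr 1))
    exact funext fun i => Fin.lastCases h2 (fun i' => congrFun h1 i') i
  refine exists_hom_isometryGroup (LinearEquiv.ofInjectiveOfFinrankEq e he ?_) _ fun v => ?_
  · rw [Module.finrank_pi_fintype, finrank_quad hK, Module.finrank_fintype_fun_eq_card]
    simp; ring
  · show algebraMap F K (quadFormMinus (k * 2) F a b (e v)) = _
    rw [show quadFormMinus (k * 2) F a b (e v) = quadFormPlus (k * 2) F (e₁ (fs v)) +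
      (d₀ (la v) ^ 2 + a * d₀ (la v) * d₁ (la v) + b * d₁ (la v) ^ 2) from rfl, map_add, hform, hnorm]
    simp only [hermForm, Fin.sum_univ_castSucc]
    rfl


end CfsgLib.Unitary
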